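import Cfsg.Agent.Lib.Helper11.WF4o.Model
import Cfsg.Agent.Lib.Helper11.Order
import Cfsg.Agent.Lib.Helper11.OrderW

set_option autoImplicit false
set_option maxRecDepth 100000

namespace Cfsg.Agent.Lib.Helper11.WF4o

open Cfsg.Spor Cfsg.Agent.Lib.Helper11.WF4 Cfsg.Agent.Lib.Helper11.WF4a

set_option maxHeartbeats 0

noncomputable def mnets : List (List (ℕ × ℕ)) := []
noncomputable def ntl2 : List (List (ℕ × ℕ)) := ntl ++ mnets
def macs : List (List ℕ) := [
  ]
def levels : List (List ℕ × ℕ × ℕ × ℕ × ℕ) := [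
  ([1, 2, 3, 4, 1, 2, 3, 2, 1, 1], 4, 0, 0, 24),
  ([1, 2, 3, 2, 1, 1], 3, 1, 1, 8),
  ([2, 1, 1], 1, 2, 2, 3),
  ([1], 1, 3, 3, 2)]

theorem nets2OK : ntl2.all (fun net => net.all (stOK (2 ^ (2 ^ 5)))) = true := by decide +kernel
theorem macOK : macChk (ntOf ntl2) 5 5 macs = true := by decide +kernel
theorem chainOK : chainChk (ntOf ntl2) 5 levels [] = true := by decide +kernel

theorem hrange : ∀ l < 5, netPerm (ntOf ntl2 l) ∈ psi.range := by
  have h0 : ∀ l < 5, netPerm (ntOf ntl2 l) ∈ psi.range := by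
    intro l hl
    refine ⟨PresentedGroup.mk _ ((WExp.l l).eval (fun l => LTFm.getD l 1)), ?_⟩
    rw [psi_eval]
    show wordPerm (ntOf ntl) [l] = _
    rw [wordPerm_single]
    have hlen : ntl.length = 5 := by decide +kernel
    have e : ntOf ntl l = ntOf ntl2 l := by
      unfold ntOf ntl2
      rw [List.getD_append _ _ _ _ (by omega)]
    rw [e]
  exact macChk_spec psi (ntOf ntl2) 5 (ntOf_ok ntl2 _ nets2OK) macs 5 macOK h0

theorem order (hup : Nat.card Cfsg.Agent.Lib.Helper11.WF4 ≠ 0 ∧ Nat.card Cfsg.Agent.Lib.Helper11.WF4 ≤ 1152) :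
    Nat.card Cfsg.Agent.Lib.Helper11.WF4 = 1152 ∧ stabL psi (pushB levels []) = ⊥ :=
  order_of_chain psi _ (ntOf ntl2) (ntOf_ok ntl2 _ nets2OK) 5 hrange levels chainOK 1152
    (by decide +kernel) hup

theorem hbn : ∀ b ∈ pushB levels [], b < 24 := by decide


end Cfsg.Agent.Lib.Helper11.WF4o
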